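import Mathlib

/-!
Gauss: for a prime `l ≡ 3 (mod 4)` the polynomial `4(X^l - 1)/(X - 1)` is `U² + l V²`.
-/

set_option autoImplicit false
set_option linter.style.haveILetI false

namespace CfsgLib.DivisionFinite

open Polynomial

/-- Gauss's decomposition of the cyclotomic polynomial. -/
theorem exists_gauss_form (l : ℕ) [Fact l.Prime] (hl : l % 4 = 3) :
    ∃ U V : ℚ[X], (X - 1) * (U ^ 2 + C (l : ℚ) * V ^ 2) = C 4 * (X ^ l - 1) := by
  classical
  let K := CyclotomicField l ℚ
  haveI : NeZero l := ⟨(Fact.out : l.Prime).ne_zero⟩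
  haveI : NeZero (l : ℚ) := ⟨Nat.cast_ne_zero.mpr (Fact.out : l.Prime).ne_zero⟩
  haveI : IsCyclotomicExtension {l} ℚ K := by
    convert CyclotomicField.isCyclotomicExtension l ℚ using 1
    all_goals first | rfl | exact Subsingleton.elim _ _
  have hζ := IsCyclotomicExtension.zeta_spec l ℚ K
  set ζ : K := IsCyclotomicExtension.zeta l ℚ K
  let ψ : AddChar (ZMod l) K := AddChar.zmodChar l hζ.pow_eq_one
  have hψ : ∀ a, ψ a = ζ ^ a.val := fun a => rfl
  have hl2 : ringChar (ZMod l) ≠ 2 := by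
    rw [ZMod.ringChar_zmod_n]; omega
  let χ : MulChar (ZMod l) K := (quadraticChar (ZMod l)).ringHomComp (Int.castRingHom K)
  have hχ : ∀ a, χ a = ((quadraticChar (ZMod l) a : ℤ) : K) := fun a => rfl
  have hneg : quadraticChar (ZMod l) (-1) = -1 := by
    rw [quadraticChar_neg_one_iff_not_isSquare]
    rw [ZMod.exists_sq_eq_neg_one_iff]
    omega
  set g := gaussSum χ ψ
  have hg2 : g ^ 2 = -(l : K) := by
    rw [gaussSum_sq (fun h => ?_) ((quadraticChar_isQuadratic (ZMod l)).comp _)
      (AddChar.zmodChar_primitive_of_primitive_root l hζ), hχ, hneg, ZMod.card]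
    · push_cast; ring
    · have := DFunLike.congr_fun h (-1)
      rw [hχ, hneg, MulChar.one_apply isUnit_one.neg] at this
      norm_num at this
  have hg0 : g ≠ 0 := fun h => by
    rw [h, zero_pow two_ne_zero, eq_comm, neg_eq_zero] at hg2
    exact (Fact.out : l.Prime).ne_zero (by exact_mod_cast hg2)
  let G : ℤ → K[X] := fun ε =>
    ∏ a ∈ Finset.univ.filter (fun a : ZMod l => quadraticChar (ZMod l) a = ε), (X - C (ψ a))
  have hall : (X - C 1) * (G 1 * G (-1)) = X ^ l - C 1 := by
    rw [X_pow_sub_C_eq_prod hζ (Fact.out : l.Prime).pos (one_pow l)]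
    have h1 : ∏ i ∈ Finset.range l, (X - C (ζ ^ i * 1)) = ∏ a : ZMod l, (X - C (ψ a)) := by
      refine Finset.prod_nbij' (fun i : ℕ => (i : ZMod l)) ZMod.val (fun i _ => Finset.mem_univ _)
        (fun a _ => Finset.mem_range.mpr (ZMod.val_lt a))
        (fun i hi => ZMod.val_cast_of_lt (Finset.mem_range.mp hi)) (fun a _ => ZMod.natCast_zmod_val a)
        (fun i hi => ?_)
      rw [hψ, ZMod.val_cast_of_lt (Finset.mem_range.mp hi), mul_one]
    rw [h1, ← Finset.prod_filter_mul_prod_filter_not Finset.univ (fun a : ZMod l => a = 0)]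
    congr 1
    · rw [Finset.filter_eq' Finset.univ (0 : ZMod l), if_pos (Finset.mem_univ _), Finset.prod_singleton,
        AddChar.map_zero_eq_one]
    · rw [← Finset.prod_filter_mul_prod_filter_not (Finset.univ.filter fun a : ZMod l => ¬a = 0)
        (fun a => quadraticChar (ZMod l) a = 1), Finset.filter_filter, Finset.filter_filter]
      congr 1
      · refine Finset.prod_congr (Finset.filter_congr fun a _ => ⟨fun h => ⟨fun h0 => ?_, h⟩, And.right⟩)
          fun _ _ => rfl
        rw [h0, MulChar.map_zero] at h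
        exact zero_ne_one h
      · refine Finset.prod_congr (Finset.filter_congr fun a _ =>
          ⟨fun h => ⟨fun h0 => ?_, by rw [h]; decide⟩,
            fun h => (quadraticChar_dichotomy h.1).resolve_left h.2⟩) fun _ _ => rfl
        rw [h0, MulChar.map_zero] at h
        norm_num at h
  have hgal : ∀ σ : K ≃ₐ[ℚ] K, ∃ ε : ℤ, (ε = 1 ∨ ε = -1) ∧ σ g = (ε : K) * g ∧
      (G 1).map (σ : K →+* K) = G ε ∧ (G (-1)).map (σ : K →+* K) = G (-ε) := by
    intro σ
    set u : (ZMod l)ˣ := hζ.autToPow ℚ σ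
    have hσψ : ∀ a, σ (ψ a) = ψ ((u : ZMod l) * a) := fun a => by
      have hu : σ ζ = ψ (u : ZMod l) := by rw [hψ]; exact (hζ.autToPow_spec ℚ σ).symm
      rw [hψ a, map_pow, hu, ← AddChar.map_nsmul_eq_pow, nsmul_eq_mul, ZMod.natCast_zmod_val, mul_comm]
    set ε := quadraticChar (ZMod l) (u : ZMod l)
    have hε : ε = 1 ∨ ε = -1 := quadraticChar_dichotomy u.ne_zero
    have hεε : ε * ε = 1 := by rcases hε with h | h <;> rw [h] <;> norm_num
    have hG : ∀ δ : ℤ, (G δ).map (σ : K →+* K) = G (ε * δ) := fun δ => by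
      simp only [G, Polynomial.map_prod, Polynomial.map_sub, Polynomial.map_X, Polynomial.map_C]
      refine Finset.prod_equiv (Units.mulLeft u) (fun a => ?_) (fun a _ => by
        show X - C (σ (ψ a)) = _
        rw [hσψ]; rfl)
      simp only [Finset.mem_filter, Finset.mem_univ, true_and]
      show _ ↔ quadraticChar (ZMod l) ((u : ZMod l) * a) = ε * δ
      rw [map_mul]
      exact ⟨fun h => by rw [h], fun h => mul_left_cancel₀ (by rcases hε with h' | h' <;> simp [show quadraticChar (ZMod l) (u : ZMod l) = _ from h']) h⟩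
    refine ⟨ε, hε, ?_, by rw [hG, mul_one], by rw [hG, mul_neg, mul_one]⟩
    have h1 : σ g = gaussSum χ (ψ.mulShift (u : ZMod l)) := by
      simp only [g, gaussSum, map_sum, map_mul, AddChar.mulShift_apply, hσψ, hχ]
      exact Finset.sum_congr rfl fun a _ => congrArg (· * _) (map_intCast σ _)
    have h2 := gaussSum_mulShift χ ψ u
    rw [← h1, hχ] at h2
    calc σ g = ((ε * ε : ℤ) : K) * σ g := by rw [hεε, Int.cast_one, one_mul]
      _ = (ε : K) * g := by rw [Int.cast_mul, mul_assoc, h2]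
  haveI : IsGalois ℚ K := IsCyclotomicExtension.isGalois {l} ℚ K
  haveI : FiniteDimensional ℚ K := IsCyclotomicExtension.finiteDimensional {l} ℚ K
  have hdesc : ∀ P : K[X], (∀ σ : K ≃ₐ[ℚ] K, P.map (σ : K →+* K) = P) →
      ∃ p : ℚ[X], p.map (algebraMap ℚ K) = P := fun P hP => by
    rw [← Polynomial.mem_lifts, Polynomial.lifts_iff_coeff_lifts]
    intro i
    have : P.coeff i ∈ (⊥ : IntermediateField ℚ K) := by
      rw [IsGalois.mem_bot_iff_fixed]
      intro σ
      conv_rhs => rw [← hP σ]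
      rw [Polynomial.coeff_map]
      rfl
    exact IntermediateField.mem_bot.mp this
  obtain ⟨U, hU⟩ := hdesc (G 1 + G (-1)) fun σ => by
    obtain ⟨ε, hε, -, h1, h2⟩ := hgal σ
    rw [Polynomial.map_add, h1, h2]
    rcases hε with rfl | rfl
    · rfl
    · rw [neg_neg, add_comm]
  obtain ⟨W, hW⟩ := hdesc (C g⁻¹ * (G 1 - G (-1))) fun σ => by
    obtain ⟨ε, hε, hg, h1, h2⟩ := hgal σ
    rw [Polynomial.map_mul, Polynomial.map_sub, Polynomial.map_C, h1, h2,
      show (σ : K →+* K) g⁻¹ = σ g⁻¹ from rfl, map_inv₀, hg]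
    rcases hε with rfl | rfl
    · norm_num
    · rw [neg_neg, Int.cast_neg, Int.cast_one, neg_one_mul, inv_neg, map_neg]
      ring
  refine ⟨U, W, Polynomial.map_injective (algebraMap ℚ K) (algebraMap ℚ K).injective ?_⟩
  simp only [Polynomial.map_mul, Polynomial.map_sub, Polynomial.map_add, Polynomial.map_pow,
    Polynomial.map_X, Polynomial.map_C, Polynomial.map_one, hU, hW, map_natCast, map_ofNat,
    Polynomial.map_natCast, Polynomial.map_ofNat]
  have hcl : (l : K[X]) * C g⁻¹ ^ 2 = -1 := by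
    rw [← C_eq_natCast, ← C_pow, ← C_mul, inv_pow, hg2, inv_neg, mul_neg,
      mul_inv_cancel₀ (by exact_mod_cast (Fact.out : l.Prime).ne_zero), C_neg, C_1]
  simp only [C_1] at hall
  linear_combination 4 * hall + (X - 1) * (G 1 - G (-1)) ^ 2 * hcl

end CfsgLib.DivisionFinite
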