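import Cfsg.Agent.Lib.DivisionFinite.ThreeSquares

/-!
The quaternion algebra spanned by a binary icosahedral group inside a division ring: no root of unity
of prime order at least seven centralises it, and no square root of `-1` induces its outer automorphism.
-/

set_option autoImplicit false
set_option linter.style.haveILetI false

namespace CfsgLib.DivisionFinite

variable {D : Type*} [DivisionRing D]

/-- Relations of the three generators. -/
structure IcoData (g k s : D) : Prop where
  g5 : g ^ 5 = 1
  g1 : g ≠ 1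
  kk : k * k = -1
  ss : s * s = -1
  kg : k * g = g ^ 4 * k
  sk : s * k = -(k * s)
  y3 : (s * g) ^ 3 = 1
  y1 : s * g ≠ 1

variable {g k s : D}

theorem geom_eq_zero {x : D} {n : ℕ} (h : x ^ n = 1) (h1 : x ≠ 1) :
    ∑ i ∈ Finset.range n, x ^ i = 0 := by
  have := geom_sum_mul x n
  rw [h, sub_self] at this
  exact (mul_eq_zero.mp this).resolve_right (sub_ne_zero.mpr h1)

/-- `√5` in the algebra. -/
def sqrtFive (g : D) : D := 2 * (g + g ^ 4) + 1

namespace IcoData

variable (d : IcoData g k s)
include d

theorem commute_c_k : Commute (g + g ^ 4) k := by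
  have h : k * g ^ 4 = (g ^ 4) ^ 4 * k := SemiconjBy.pow_right d.kg 4
  rw [← pow_mul, show 4 * 4 = 5 * 3 + 1 from rfl, pow_add, pow_mul, d.g5, one_pow, one_mul, pow_one] at h
  show _ * k = k * _
  rw [mul_add, d.kg, h, add_mul, add_comm]

theorem commute_c_s : Commute (g + g ^ 4) s := by
  have hsum := geom_eq_zero d.y3 d.y1
  simp only [Finset.sum_range_succ, Finset.sum_range_zero, zero_add, pow_zero, pow_one] at hsum
  have hy2 : (s * g) ^ 2 = -(g ^ 4 * s) := by
    have h1 : (s * g) * -(g ^ 4 * s) = 1 := by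
      rw [mul_neg, mul_assoc, ← mul_assoc g, ← pow_succ', d.g5, one_mul, d.ss, neg_neg]
    have h2 : (s * g) * (s * g) ^ 2 = 1 := by rw [← pow_succ', d.y3]
    exact mul_left_cancel₀ (left_ne_zero_of_mul_eq_one h1) (h2.trans h1.symm)
  rw [hy2] at hsum
  have hk : k ≠ 0 := fun h => by simpa [h] using d.kk
  have h4 : k * g ^ 4 = g * k := by
    have h : k * g ^ 4 = (g ^ 4) ^ 4 * k := SemiconjBy.pow_right d.kg 4
    rwa [← pow_mul, show 4 * 4 = 5 * 3 + 1 from rfl, pow_add, pow_mul, d.g5, one_pow, one_mul, pow_one] at h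
  have hks : k * s = -(s * k) := by rw [d.sk, neg_neg]
  have e2 : 1 + -(s * g ^ 4) + g * s = 0 := by
    refine (mul_eq_zero.mp (?_ : (1 + -(s * g ^ 4) + g * s) * k = 0)).resolve_right hk
    have h := congrArg (k * ·) hsum
    simp only [mul_add, mul_one, mul_neg, mul_zero, ← mul_assoc, hks, h4] at h
    simp only [mul_assoc, neg_mul, d.kg, hks, mul_neg] at h
    rw [add_mul, add_mul, one_mul, neg_mul, mul_assoc, mul_assoc]
    simpa [neg_neg] using h
  have : s * g + -(g ^ 4 * s) - (-(s * g ^ 4) + g * s) = 0 := by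
    linear_combination (norm := abel) hsum - e2
  show _ * s = s * _
  linear_combination (norm := noncomm_ring) -this

theorem sq_sqrtFive : sqrtFive g * sqrtFive g = 5 := by
  have hsum := geom_eq_zero d.g5 d.g1
  simp only [Finset.sum_range_succ, Finset.sum_range_zero, zero_add, pow_zero, pow_one] at hsum
  have hc : (g + g ^ 4) * (g + g ^ 4) + (g + g ^ 4) = 1 := by
    have h8 : g ^ 4 * g ^ 4 = g ^ 3 := by
      rw [← pow_add, show 4 + 4 = 5 + 3 from rfl, pow_add, d.g5, one_mul]
    rw [mul_add, add_mul, add_mul, ← pow_succ, ← pow_succ', d.g5, h8, ← pow_two]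
    linear_combination (norm := abel) hsum
  rw [sqrtFive]
  linear_combination (norm := (noncomm_ring <;> norm_num)) 4 * hc

theorem commute_z_k : Commute (sqrtFive g) k :=
  ((Nat.cast_commute 2 k).mul_left d.commute_c_k).add_left (Commute.one_left k)

theorem commute_z_s : Commute (sqrtFive g) s :=
  ((Nat.cast_commute 2 s).mul_left d.commute_c_s).add_left (Commute.one_left s)

theorem sqrtFive_ne_zero [CharZero D] : sqrtFive g ≠ 0 := fun h => by
  have := d.sq_sqrtFive
  rw [h, zero_mul] at this
  norm_num at this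

/-- No root of unity of prime order at least seven centralises the algebra. -/
theorem not_commute_prime [CharZero D] {p : ℕ} [Fact p.Prime] (h7 : 7 ≤ p) {ζ : D} (hζ : ζ ^ p = 1)
    (hζ1 : ζ ≠ 1) (hg : Commute ζ g) (hk : Commute ζ k) (hs : Commute ζ s) : False := by
  set z := sqrtFive g with hz
  have hζz : Commute ζ z :=
    ((Nat.cast_commute 2 ζ).symm.mul_right (hg.add_right (hg.pow_right 4))).add_right (Commute.one_right ζ)
  let A : Subalgebra ℚ D := Algebra.adjoin ℚ {ζ, z}
  letI : CommRing A := Algebra.adjoinCommRingOfComm ℚ (by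
    rintro a (rfl | rfl) b (rfl | rfl)
    · rfl
    · exact hζz.eq
    · exact hζz.symm.eq
    · rfl)
  haveI : NoZeroDivisors A := Subtype.coe_injective.noZeroDivisors _ rfl fun _ _ => rfl
  haveI : Nontrivial A := ⟨0, 1, fun h => zero_ne_one (α := D) (congrArg Subtype.val h)⟩
  haveI : IsDomain A := NoZeroDivisors.to_isDomain A
  let ζA : A := ⟨ζ, Algebra.subset_adjoin (by simp)⟩
  let zA : A := ⟨z, Algebra.subset_adjoin (by simp)⟩
  obtain ⟨⟨a, ha⟩, ⟨b, hb⟩, ⟨c, hc⟩, habc⟩ := exists_three_squares p h7 (ζ := ζA) (z := zA)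
    (Subtype.ext hζ) (fun h => hζ1 (congrArg Subtype.val h))
    (Subtype.ext (by show z ^ 2 = _; rw [pow_two, hz, d.sq_sqrtFive]; rfl))
  have habc : a * a + b * b + c * c = -1 := by
    have h := congrArg Subtype.val habc
    simpa [pow_two] using h
  have hcent : ∀ x ∈ A, Commute x k ∧ Commute x s := by
    intro x hx
    have h : A ≤ Subalgebra.centralizer ℚ {k, s} := Algebra.adjoin_le (by
      rintro y (rfl | rfl)
      · exact (Subalgebra.mem_centralizer_iff ℚ).mpr (by
          rintro w (rfl | rfl)
          · exact hk.symm.eq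
          · exact hs.symm.eq)
      · exact (Subalgebra.mem_centralizer_iff ℚ).mpr (by
          rintro w (rfl | rfl)
          · exact d.commute_z_k.symm.eq
          · exact d.commute_z_s.symm.eq))
    have h' := (Subalgebra.mem_centralizer_iff ℚ).mp (h hx)
    exact ⟨(h' k (by simp)).symm, (h' s (by simp)).symm⟩
  have hcA : ∀ x ∈ A, ∀ y ∈ A, Commute x y := fun x hx y hy =>
    congrArg Subtype.val (mul_comm (⟨x, hx⟩ : A) ⟨y, hy⟩)
  obtain ⟨hak, has⟩ := hcent a ha
  obtain ⟨hbk, hbs⟩ := hcent b hb
  obtain ⟨hck, hcs⟩ := hcent c hc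
  have hab : Commute a b := hcA a ha b hb
  have hac : Commute a c := hcA a ha c hc
  have hbc : Commute b c := hcA b hb c hc
  have hks : k * s = -(s * k) := by rw [d.sk, neg_neg]
  have hkks : k * (k * s) = -s := by rw [← mul_assoc, d.kk, neg_one_mul]
  have hksk : k * s * k = s := by rw [mul_assoc, d.sk, mul_neg, hkks, neg_neg]
  have hsks : s * (k * s) = k := by rw [← mul_assoc, d.sk, neg_mul, mul_assoc, d.ss, mul_neg_one, neg_neg]
  have hkss : k * s * s = -k := by rw [mul_assoc, d.ss, mul_neg_one]
  have hbks : Commute (k * s) b := hbk.symm.mul_left hbs.symm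
  have hcks : Commute (k * s) c := hck.symm.mul_left hcs.symm
  set u := b * k + c * s + k * s with hu
  have hau : Commute a u :=
    ((hab.mul_right hak).add_right (hac.mul_right has)).add_right (hak.mul_right has)
  have huu : u * u = -(b * b + c * c + 1) := by
    have t1 : b * k * (b * k) = -(b * b) := by rw [hbk.symm.mul_mul_mul_comm, d.kk, mul_neg_one]
    have t2 : c * s * (c * s) = -(c * c) := by rw [hcs.symm.mul_mul_mul_comm, d.ss, mul_neg_one]
    have t3 : k * s * (k * s) = -1 := by rw [mul_assoc, hsks, d.kk]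
    have t4 : b * k * (c * s) = b * c * (k * s) := hck.symm.mul_mul_mul_comm b s
    have t5 : c * s * (b * k) = -(b * c * (k * s)) := by
      rw [hbs.symm.mul_mul_mul_comm, d.sk, mul_neg, hbc.eq]
    have t6 : b * k * (k * s) = -(b * s) := by rw [mul_assoc, hkks, mul_neg]
    have t7 : k * s * (b * k) = b * s := by rw [← mul_assoc, hbks.eq, mul_assoc b, hksk]
    have t8 : c * s * (k * s) = c * k := by rw [mul_assoc, hsks]
    have t9 : k * s * (c * s) = -(c * k) := by rw [← mul_assoc, hcks.eq, mul_assoc c, hkss, mul_neg]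
    rw [hu]
    simp only [mul_add, add_mul, t1, t2, t3, t4, t5, t6, t7, t8, t9]
    abel
  have hPQ : (a + u) * (a - u) = 0 := by
    rw [add_mul, mul_sub, mul_sub, hau.eq, huu]
    linear_combination (norm := abel) habc
  have key : ∀ ε : D, (ε = 1 ∨ ε = -1) → a + ε * u ≠ 0 := by
    intro ε hε h
    -- conjugate by `k`
    have hku : k * u = (b * k - c * s - k * s) * k := by
      have e1 : k * (b * k) = -b := by rw [← mul_assoc, hbk.symm.eq, mul_assoc, d.kk, mul_neg_one]
      have e2 : k * (c * s) = c * (k * s) := by rw [← mul_assoc, hck.symm.eq, mul_assoc]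
      have e3 : b * k * k = -b := by rw [mul_assoc, d.kk, mul_neg_one]
      have e4 : c * s * k = -(c * (k * s)) := by rw [mul_assoc, d.sk, mul_neg]
      rw [hu, mul_add, mul_add, sub_mul, sub_mul, e1, e2, hkks, e3, e4, hksk]
      abel
    have hkε : k * ε = ε * k := by rcases hε with rfl | rfl <;> simp
    have h' : a + ε * (b * k - c * s - k * s) = 0 := by
      have hk0 : k ≠ 0 := fun h0 => by simpa [h0] using d.kk
      refine (mul_eq_zero.mp (?_ : (a + ε * (b * k - c * s - k * s)) * k = 0)).resolve_right hk0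
      rw [add_mul, mul_assoc, ← hku, ← mul_assoc, ← hkε, mul_assoc, hak.eq, ← mul_add, h, mul_zero]
    have hdiff : ε * (2 * ((c + k) * s)) = 0 := by
      rw [hu] at h
      linear_combination (norm := noncomm_ring) h - h'
    have h2 : (2 : D) ≠ 0 := two_ne_zero
    have hs0 : s ≠ 0 := fun h0 => by simpa [h0] using d.ss
    have hε0 : ε ≠ 0 := by rcases hε with rfl | rfl <;> simp
    have hck' : c + k = 0 :=
      (mul_eq_zero.mp ((mul_eq_zero.mp ((mul_eq_zero.mp hdiff).resolve_left hε0)).resolve_left h2)).resolve_right hs0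
    have hk0 : k * s ≠ 0 := mul_ne_zero (fun h0 => by simpa [h0] using d.kk) hs0
    have hkc : k = -c := eq_neg_of_add_eq_zero_right hck'
    have : k * s = s * k := by rw [hkc]; exact (hcs.neg_left).eq
    refine hk0 ?_
    have : k * s + k * s = 0 := by nth_rewrite 2 [this]; rw [d.sk]; abel
    rwa [← two_mul, mul_eq_zero, or_iff_right h2] at this
  rcases mul_eq_zero.mp hPQ with h | h
  · exact key 1 (Or.inl rfl) (by rwa [one_mul])
  · exact key (-1) (Or.inr rfl) (by rwa [neg_one_mul, ← sub_eq_add_neg])

/-- No square root of `-1` anticommutes with both `√5` and `k`. -/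
theorem no_outer [CharZero D] {T : D} (hT : T * T = -1) (hTz : T * sqrtFive g = -(sqrtFive g * T))
    (hTk : T * k = -(k * T)) : False := by
  set z := sqrtFive g
  have hzk : z * k = k * z := d.commute_z_k.eq
  have hzz : z * z = 5 := d.sq_sqrtFive
  set x := z * k
  set y := 2 * z + 5 * T
  have hxx : x * x = -5 := by
    show z * k * (z * k) = _
    rw [mul_assoc, ← mul_assoc k, ← hzk, mul_assoc z k, d.kk, ← mul_assoc, hzz, mul_neg_one]
  have hyy : y * y = -5 := by
    show (2 * z + 5 * T) * (2 * z + 5 * T) = _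
    linear_combination (norm := (noncomm_ring <;> norm_num)) 4 * hzz + 10 * hTz + 25 * hT
  have hxy : x * y = y * x := by
    have e : z * k * T = T * (z * k) := by
      rw [← mul_assoc T, hTz, neg_mul, mul_assoc z T, hTk, mul_neg, neg_neg, mul_assoc]
    have e' : z * k * z = z * (z * k) := by rw [mul_assoc, ← hzk]
    show z * k * (2 * z + 5 * T) = (2 * z + 5 * T) * (z * k)
    linear_combination (norm := noncomm_ring) 2 * e' + 5 * e
  have hfac : (x - y) * (x + y) = 0 := by
    linear_combination (norm := noncomm_ring) hxx - hyy + hxy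
  have key : ∀ ε : D, (ε = 1 ∨ ε = -1) → y ≠ ε * x := by
    intro ε hε h
    have hcy : Commute y z := by
      rw [h]
      refine Commute.mul_left (by rcases hε with rfl | rfl <;> simp) ?_
      exact (Commute.refl z).mul_left hzk.symm
    have h5 : 5 * (T * z) = 5 * (z * T) := by
      have : (2 * z + 5 * T) * z = z * (2 * z + 5 * T) := hcy.eq
      linear_combination (norm := noncomm_ring) this
    have hTz' := mul_left_cancel₀ (by norm_num : (5 : D) ≠ 0) h5
    have : z * T + z * T = 0 := by nth_rewrite 1 [← hTz']; rw [hTz]; abel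
    have hT0 : T ≠ 0 := fun h0 => by simpa [h0] using hT
    rw [← two_mul] at this
    exact mul_ne_zero two_ne_zero (mul_ne_zero d.sqrtFive_ne_zero hT0) this
  rcases mul_eq_zero.mp hfac with h | h
  · exact key 1 (Or.inl rfl) (by rw [one_mul]; exact (sub_eq_zero.mp h).symm)
  · exact key (-1) (Or.inr rfl) (by rw [neg_one_mul]; exact eq_neg_of_add_eq_zero_right h)

end IcoData

end CfsgLib.DivisionFinite
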