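import Cfsg.Agent.Lib.DivisionFinite.Icosahedral
import Cfsg.Agent.Lib.DivisionFinite.SLFive
import Cfsg.Agent.Lib.SL2.Card
import Cfsg.Agent.S3359

/-!
A finite insoluble group in the units of a division ring is `SL(2,5)`.
-/

set_option autoImplicit false
set_option linter.style.haveILetI false

namespace CfsgLib.DivisionFinite

open scoped MatrixGroups
open Matrix

variable {D : Type*} [DivisionRing D]

/-- In positive characteristic such a group is commutative. -/
theorem commute_of_charP (p : ℕ) [Fact p.Prime] [CharP D p] (H : Subgroup Dˣ) [Finite H] (a b : H) :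
    a * b = b * a := by
  letI := ZMod.algebra D p
  let f : H →* D := (Units.coeHom D).comp H.subtype
  let A : Subalgebra (ZMod p) D := Algebra.adjoin (ZMod p) (Set.range f)
  have hA : Subalgebra.toSubmodule A = Submodule.span (ZMod p) (Set.range f) := by
    rw [Algebra.adjoin_eq_span, ← MonoidHom.coe_mrange, Submonoid.closure_eq]
  haveI : Module.Finite (ZMod p) (Subalgebra.toSubmodule A) := by
    rw [hA]; exact Module.Finite.span_of_finite _ (Set.finite_range f)
  haveI : Finite A := Module.finite_of_finite (ZMod p) (M := Subalgebra.toSubmodule A)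
  haveI : NoZeroDivisors A := Subtype.coe_injective.noZeroDivisors _ rfl fun _ _ => rfl
  haveI : Nontrivial A := ⟨0, 1, fun h => zero_ne_one (α := D) (congrArg Subtype.val h)⟩
  haveI : IsDomain A := NoZeroDivisors.to_isDomain A
  have hfield : IsField A := Finite.isDomain_to_isField A
  refine Subtype.ext (Units.ext ?_)
  exact congrArg Subtype.val
    (hfield.mul_comm (⟨f a, Algebra.subset_adjoin ⟨a, rfl⟩⟩ : A) ⟨f b, Algebra.subset_adjoin ⟨b, rfl⟩⟩)

/-- A finite group of units in characteristic zero acts fixed-point-freely on a finite group. -/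
theorem exists_fpf [CharZero D] (H : Subgroup Dˣ) [Finite H] :
    ∃ (r ℓ : ℕ) (_ : Fact ℓ.Prime), 0 < r ∧ ∃ φ : H →* MulAut (Multiplicative (Fin r → ZMod ℓ)),
      ∀ h : H, h ≠ 1 → ∀ x, φ h x = x → x = 1 := by
  classical
  let f : H →* D := (Units.coeHom D).comp H.subtype
  let Λ : Submodule ℤ D := Submodule.span ℤ (Set.range f)
  haveI : Module.Finite ℤ Λ := Module.Finite.span_of_finite ℤ (Set.finite_range f)
  have hclosed : ∀ h : H, ∀ v ∈ Λ, f h * v ∈ Λ := fun h v hv => by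
    induction hv using Submodule.span_induction with
    | mem y hy => obtain ⟨h', rfl⟩ := hy; exact Submodule.subset_span ⟨h * h', map_mul f h h'⟩
    | zero => rw [mul_zero]; exact zero_mem _
    | add y z _ _ h1 h2 => rw [mul_add]; exact add_mem h1 h2
    | smul a y _ h1 => rw [mul_smul_comm]; exact Λ.smul_mem a h1
  let L : H →* Module.End ℤ Λ :=
    { toFun := fun h => (LinearMap.mulLeft ℤ (f h)).restrict (hclosed h)
      map_one' := LinearMap.ext fun v => Subtype.ext (by simp)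
      map_mul' := fun a b => LinearMap.ext fun v => Subtype.ext (by
        show f (a * b) * (v : D) = f a * (f b * (v : D))
        rw [map_mul, mul_assoc]) }
  let bΛ := Module.finBasis ℤ Λ
  set r := Module.finrank ℤ Λ
  have hr : 0 < r := by
    have : (1 : D) ∈ Λ := Submodule.subset_span ⟨1, map_one f⟩
    haveI : Nontrivial Λ := ⟨0, ⟨1, this⟩, fun h => zero_ne_one (α := D) (congrArg Subtype.val h)⟩
    exact Module.finrank_pos
  obtain ⟨ℓ, hℓ, hℓp⟩ := Nat.exists_infinite_primes (Nat.card H + 1)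
  haveI := Fact.mk hℓp
  let Ψ : Module.End ℤ Λ →+* Matrix (Fin r) (Fin r) (ZMod ℓ) :=
    ((Int.castRingHom (ZMod ℓ)).mapMatrix).comp (algEquivMatrix bΛ).toAlgHom.toRingHom
  let M : H →* Matrix (Fin r) (Fin r) (ZMod ℓ) := Ψ.toMonoidHom.comp L
  have hinv : ∀ (h : H) (v : Fin r → ZMod ℓ), M h⁻¹ *ᵥ (M h *ᵥ v) = v := fun h v => by
    rw [Matrix.mulVec_mulVec, ← map_mul, inv_mul_cancel, map_one, Matrix.one_mulVec]
  let φ : H →* MulAut (Multiplicative (Fin r → ZMod ℓ)) :=
    { toFun := fun h => AddEquiv.toMultiplicative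
        { toFun := fun v => M h *ᵥ v
          invFun := fun v => M h⁻¹ *ᵥ v
          left_inv := hinv h
          right_inv := fun v => by simpa using hinv h⁻¹ v
          map_add' := fun u v => Matrix.mulVec_add _ u v }
      map_one' := MulEquiv.ext fun x => by
        show Multiplicative.ofAdd (M 1 *ᵥ Multiplicative.toAdd x) = x
        simp
      map_mul' := fun a b => MulEquiv.ext fun x => by
        show Multiplicative.ofAdd (M (a * b) *ᵥ Multiplicative.toAdd x) =
          Multiplicative.ofAdd (M a *ᵥ (M b *ᵥ Multiplicative.toAdd x))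
        rw [Matrix.mulVec_mulVec, ← map_mul] }
  refine ⟨r, ℓ, inferInstance, hr, φ, fun h hh x hx => ?_⟩
  set v := Multiplicative.toAdd x
  replace hx : M h *ᵥ v = v := congrArg Multiplicative.toAdd hx
  set n := orderOf h
  have hn : h ^ n = 1 := pow_orderOf_eq_one h
  have hsum : ∑ i ∈ Finset.range n, L (h ^ i) = 0 := LinearMap.ext fun w => Subtype.ext (by
    simp only [LinearMap.coe_sum, Finset.sum_apply, Submodule.coe_sum, LinearMap.zero_apply,
      ZeroMemClass.coe_zero]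
    show ∑ i ∈ Finset.range n, f (h ^ i) * (w : D) = 0
    simp only [map_pow, ← Finset.sum_mul]
    rw [geom_eq_zero (x := f h) (by rw [← map_pow, hn, map_one])
      (fun h1 => hh (Subtype.ext (Units.ext h1))), zero_mul])
  have hpow : ∀ i, M (h ^ i) *ᵥ v = v := fun i => by
    induction i with
    | zero => rw [pow_zero, map_one, Matrix.one_mulVec]
    | succ i ih => rw [pow_succ, map_mul, ← Matrix.mulVec_mulVec, hx, ih]
  have h0 : (n : ZMod ℓ) • v = 0 := by
    have h1 := congrArg (fun A => Ψ A *ᵥ v) hsum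
    simp only [map_sum, map_zero, Matrix.zero_mulVec, Matrix.sum_mulVec] at h1
    rw [← h1, show (∑ i ∈ Finset.range n, Ψ (L (h ^ i)) *ᵥ v) = ∑ i ∈ Finset.range n, v from
      Finset.sum_congr rfl fun i _ => hpow i, Finset.sum_const, Finset.card_range,
      Nat.cast_smul_eq_nsmul]
  refine Multiplicative.toAdd.injective ((smul_eq_zero.mp h0).resolve_left fun h2 => ?_)
  have h3 := Nat.le_of_dvd (orderOf_pos h) ((ZMod.natCast_eq_zero_iff n ℓ).mp h2)
  have h4 : n ≤ Nat.card H := Nat.le_of_dvd Nat.card_pos (orderOf_dvd_natCard h)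
  omega

/-- Elements of order five of `SL(2,5)` are conjugate to powers of the generator. -/
theorem exists_conj_g₀ (X : SL(2, ZMod 5)) (h : X ^ 5 = 1) :
    ∃ (Y : SL(2, ZMod 5)) (m : ℕ), m < 5 ∧ Y * X * Y⁻¹ = g₀ ^ m := by
  classical
  haveI : Fact (Nat.Prime 5) := ⟨Nat.prime_five⟩
  have hcard : Nat.card SL(2, ZMod 5) = 120 := by
    rw [CfsgLib.SL2.card_SL, Nat.card_eq_fintype_card, ZMod.card]; norm_num
  have ho : orderOf g₀ = 5 := orderOf_eq_prime relations.1 relations.2.1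
  have hfac : (Nat.card SL(2, ZMod 5)).factorization 5 = 1 := by
    rw [hcard, Nat.factorization_def _ Nat.prime_five, show (120 : ℕ) = 5 ^ 1 * 24 from rfl,
      padicValNat.mul (by norm_num) (by norm_num), padicValNat.prime_pow,
      padicValNat.eq_zero_of_not_dvd (by norm_num)]
  let P : Sylow 5 SL(2, ZMod 5) := Sylow.ofCard (Subgroup.zpowers g₀)
    (by rw [Nat.card_zpowers, ho, hfac, pow_one])
  have hX : IsPGroup 5 (Subgroup.zpowers X) := by
    obtain ⟨i, -, hi⟩ := (Nat.dvd_prime_pow Nat.prime_five (m := 1)).mp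
      (show orderOf X ∣ 5 ^ 1 by simpa using orderOf_dvd_of_pow_eq_one h)
    exact IsPGroup.of_card (n := i) (by rw [Nat.card_zpowers, hi])
  obtain ⟨Q, hQ⟩ := hX.exists_le_sylow
  obtain ⟨Y, hY⟩ := MulAction.exists_smul_eq SL(2, ZMod 5) Q P
  have hmem : Y * X * Y⁻¹ ∈ Subgroup.zpowers g₀ := by
    have h1 : Y * X * Y⁻¹ ∈ ((Y • Q : Sylow 5 SL(2, ZMod 5)) : Subgroup SL(2, ZMod 5)) := by
      rw [Sylow.coe_subgroup_smul]
      exact Subgroup.mem_pointwise_smul_iff_inv_smul_mem.mpr (by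
        show (MulAut.conj Y)⁻¹ • (Y * X * Y⁻¹) ∈ _
        rw [MulAut.smul_def, MulAut.inv_apply, MulAut.conj_symm_apply]
        simpa [mul_assoc] using hQ (Subgroup.mem_zpowers X))
    rw [hY] at h1
    exact h1
  obtain ⟨i, hi⟩ := (mem_powers_iff_mem_zpowers.mpr hmem : Y * X * Y⁻¹ ∈ Submonoid.powers g₀)
  exact ⟨Y, i % 5, Nat.mod_lt _ (by norm_num), by rw [← pow_eq_pow_mod i relations.1]; exact hi.symm⟩

theorem outer_word : g₀ ^ 4 * (k₀ * s₀) * g₀ ^ 6 * (k₀ * s₀)⁻¹ * g₀ ^ 4 * (k₀ * s₀)⁻¹ = k₀ ∧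
    (∀ X : SL(2, ZMod 5), m₀ * X = X * m₀) := by
  refine ⟨by decide +kernel, fun X => ?_⟩
  have : ((m₀ : SL(2, ZMod 5)) : Matrix (Fin 2) (Fin 2) (ZMod 5)) = (4 : ZMod 5) • 1 := by decide +kernel
  refine Subtype.ext ?_
  show (m₀ : Matrix (Fin 2) (Fin 2) (ZMod 5)) * X = X * (m₀ : Matrix (Fin 2) (Fin 2) (ZMod 5))
  rw [this, smul_mul_assoc, mul_smul_comm, one_mul, mul_one]

theorem main [CharZero D] (H : Subgroup Dˣ) [Finite H] (hH : ¬ Group.IsSolvable H) :
    Nonempty (H ≃* SL(2, ZMod 5)) := by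
  classical
  obtain ⟨r, ℓ, _, hr, φ, hφ⟩ := exists_fpf H
  haveI : Nonempty (Fin r) := ⟨⟨0, hr⟩⟩
  obtain ⟨G₀, hG₀, hidx, S, M, hSM, -, hcomm, ⟨e⟩, -, hM30⟩ := Cfsg.Agent.S3359.main φ hφ hH
  obtain ⟨rg5, rg1, rmm, rm1, rkk, rss, rkg, rsk, ry3, ry1, rword⟩ := relations
  let ι : SL(2, ZMod 5) →* H := S.subtype.comp e.symm.toMonoidHom
  have hι : Function.Injective ι := Subtype.coe_injective.comp e.symm.injective
  have hιS : ∀ X, ι X ∈ S := fun X => (e.symm X).2
  have hιsurj : ∀ x ∈ S, ∃ X, ι X = x := fun x hx => ⟨e ⟨x, hx⟩, by simp [ι]⟩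
  let v : H →* D := (Units.coeHom D).comp H.subtype
  have hv : Function.Injective v := fun a b h => Subtype.ext (Units.ext h)
  let f : SL(2, ZMod 5) →* D := v.comp ι
  have hf : Function.Injective f := hv.comp hι
  have hfm : f m₀ = -1 := by
    have h : f m₀ * f m₀ = 1 := by rw [← map_mul, rmm, map_one]
    exact (mul_self_eq_one_iff.mp h).resolve_left fun h1 => rm1 (hf (h1.trans (map_one f).symm))
  have hd : IcoData (f g₀) (f k₀) (f s₀) :=
    { g5 := by rw [← map_pow, rg5, map_one]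
      g1 := fun h => rg1 (hf (h.trans (map_one f).symm))
      kk := by rw [← map_mul, rkk, hfm]
      ss := by rw [← map_mul, rss, hfm]
      kg := by rw [← map_mul, rkg, map_mul, map_pow]
      sk := by rw [← map_mul, rsk, map_mul, map_mul, hfm, neg_one_mul, neg_mul]
      y3 := by rw [← map_mul, ← map_pow, ry3, map_one]
      y1 := fun h => ry1 (hf (by rw [map_mul, h, map_one])) }
  have hMbot : M = ⊥ := by
    by_contra hne
    haveI : Nontrivial M := M.nontrivial_iff_ne_bot.mpr hne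
    obtain ⟨p, hp, hpdvd⟩ := Nat.exists_prime_and_dvd (n := Nat.card M) Finite.one_lt_card.ne'
    haveI := Fact.mk hp
    obtain ⟨x, hx⟩ := exists_prime_orderOf_dvd_card' (G := M) p hpdvd
    have h7 : 7 ≤ p := by
      have hco : p.Coprime 30 := Nat.Coprime.coprime_dvd_left hpdvd hM30
      by_contra h
      push Not at h
      interval_cases p <;> first | (norm_num at hp; done) | (norm_num at hco; done)
    have hcx : ∀ X, Commute (v (x : H)) (f X) := fun X => by
      show v _ * v _ = v _ * v _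
      rw [← map_mul, ← map_mul, hcomm _ (hιS X) _ x.2]
    refine hd.not_commute_prime h7 (ζ := v (x : H)) ?_ (fun h => ?_) (hcx _) (hcx _) (hcx _)
    · rw [← map_pow, ← SubmonoidClass.coe_pow, ← hx, pow_orderOf_eq_one]; simp
    · have hx1 : x = 1 := Subtype.ext (hv (h.trans (map_one v).symm))
      rw [hx1, orderOf_one] at hx
      exact hp.one_lt.ne hx
  have hS : S = G₀ := by rw [← hSM, hMbot, sup_bot_eq]
  subst hS
  rcases hidx with hidx | hidx
  · have htop : S = ⊤ := Subgroup.index_eq_one.mp hidx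
    exact ⟨(Subgroup.topEquiv.symm.trans (MulEquiv.subgroupCongr htop.symm)).trans e⟩
  exfalso
  -- the outer element
  obtain ⟨t₀, ht₀⟩ : ∃ t : H, t ∉ S := by
    by_contra h
    push Not at h
    rw [(Subgroup.eq_top_iff' S).mpr h, Subgroup.index_top] at hidx
    omega
  have hθ : ∀ t : H, ∀ X, ∃ Y, ι Y = t * ι X * t⁻¹ := fun t X => hιsurj _ (hG₀.conj_mem _ (hιS X) t)
  have hnotS : ∀ t : H, t ∉ S → ∀ X, ι X * t ∉ S := fun t ht X h =>
    ht (by simpa using S.mul_mem (S.inv_mem (hιS X)) h)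
  -- `t` normalises `⟨g₀⟩`
  obtain ⟨t, ht, m, hm12, htg⟩ : ∃ t : H, t ∉ S ∧ ∃ m, (m = 1 ∨ m = 2) ∧ t * ι g₀ * t⁻¹ = ι (g₀ ^ m) := by
    obtain ⟨X, hX⟩ := hθ t₀ g₀
    have hX5 : X ^ 5 = 1 := hι (by rw [map_pow, hX, conj_pow, ← map_pow, rg5, map_one]; group)
    obtain ⟨Y, m, hm, hY⟩ := exists_conj_g₀ X hX5
    set t₁ := ι Y * t₀
    have h1 : t₁ * ι g₀ * t₁⁻¹ = ι (g₀ ^ m) := by
      rw [← hY, map_mul, map_mul, map_inv, hX]; simp only [t₁]; group
    have hm0 : m ≠ 0 := fun h => by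
      rw [h, pow_zero, map_one, mul_inv_eq_one, mul_eq_left] at h1
      exact rg1 (hι (h1.trans (map_one ι).symm))
    by_cases hm' : m = 1 ∨ m = 2
    · exact ⟨t₁, hnotS _ ht₀ Y, m, hm', h1⟩
    refine ⟨ι k₀ * t₁, hnotS _ (hnotS _ ht₀ Y) k₀, 4 * m % 5, ?_, ?_⟩
    · have h34 : m = 3 ∨ m = 4 := by omega
      rcases h34 with rfl | rfl <;> norm_num
    have hk : k₀ * g₀ ^ m * k₀⁻¹ = g₀ ^ (4 * m % 5) := by
      rw [← pow_eq_pow_mod _ rg5, ← conj_pow, show k₀ * g₀ * k₀⁻¹ = g₀ ^ 4 by rw [rkg]; group, ← pow_mul]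
    rw [← hk, map_mul, map_mul, map_inv, ← h1]; group
  -- and sends `k₀` to `± k₀`
  have rkg' : ∀ i, k₀ * g₀ ^ i = (g₀ ^ 4) ^ i * k₀ := fun i => SemiconjBy.pow_right rkg i
  have hm0c := outer_word.2
  obtain ⟨t, ht, htg, K, hK, htk⟩ : ∃ t : H, t ∉ S ∧ t * ι g₀ * t⁻¹ = ι (g₀ ^ m) ∧
      ∃ K, (K = k₀ ∨ K = m₀ * k₀) ∧ t * ι k₀ * t⁻¹ = ι K := by
    obtain ⟨K, hK⟩ := hθ t k₀
    have hKK : K * K = m₀ := by
      have h1 : K * K * (K * K) = 1 := hι (by
        rw [map_mul, map_mul, hK, map_one, show t * ι k₀ * t⁻¹ * (t * ι k₀ * t⁻¹) *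
          (t * ι k₀ * t⁻¹ * (t * ι k₀ * t⁻¹)) = t * (ι (k₀ * k₀) * ι (k₀ * k₀)) * t⁻¹ by
            simp only [map_mul]; group, ← map_mul, rkk, rmm, map_one]
        group)
      refine (eq_one_or_m₀ _ h1).resolve_left fun h2 => rm1 (hι ?_)
      have h3 : t * (ι k₀ * ι k₀) * t⁻¹ = 1 := by
        have h4 : ι K * ι K = 1 := by rw [← map_mul, h2, map_one]
        rw [← h4, hK]; group
      rw [mul_inv_eq_one, mul_eq_left, ← map_mul, rkk] at h3
      rw [h3, map_one]
    have hKgm : K * g₀ ^ m = (g₀ ^ 4) ^ m * K := hι (by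
      simp only [map_mul, hK, ← htg]
      rw [← pow_mul, mul_comm 4 m, pow_mul, map_pow, ← htg, conj_pow,
        show t * ι k₀ * t⁻¹ * (t * ι g₀ * t⁻¹) = t * (ι (k₀ * g₀)) * t⁻¹ by rw [map_mul]; group, rkg,
        map_mul, map_pow]
      group)
    have hKg : K * g₀ = g₀ ^ 4 * K := by
      rcases hm12 with rfl | rfl
      · simpa using hKgm
      · have h6 : K * (g₀ ^ 2) ^ 3 = ((g₀ ^ 4) ^ 2) ^ 3 * K := SemiconjBy.pow_right hKgm 3
        rw [← pow_mul, ← pow_mul, ← pow_mul, pow_eq_pow_mod _ rg5, pow_eq_pow_mod (4 * (2 * 3)) rg5] at h6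
        simpa using h6
    obtain ⟨j, hj⟩ := inverting K hKg hKK
    refine ⟨ι (g₀ ^ (j : ℕ)) * t, hnotS _ ht _, ?_,
      g₀ ^ (j : ℕ) * K * (g₀ ^ (j : ℕ))⁻¹, ?_, ?_⟩
    · have hc : g₀ ^ (j : ℕ) * g₀ ^ m * (g₀ ^ (j : ℕ))⁻¹ = g₀ ^ m := by
        rw [← pow_add, add_comm, pow_add, mul_inv_cancel_right]
      conv_rhs => rw [← hc, map_mul, map_mul, map_inv, ← htg]
      group
    · rcases hj with h | h <;> rw [h, mul_inv_cancel_right]
      · exact Or.inl rfl
      · exact Or.inr rfl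
    · rw [map_mul (ι : SL(2, ZMod 5) →* H) (_ * K), map_mul, map_inv, hK]; group
  obtain ⟨X, hX⟩ := hθ t s₀
  have htm : t * ι m₀ * t⁻¹ = ι m₀ := by
    obtain ⟨Y, hY⟩ := hθ t m₀
    have h1 : Y * Y = 1 := hι (by
      rw [map_mul, hY, show t * ι m₀ * t⁻¹ * (t * ι m₀ * t⁻¹) = t * ι (m₀ * m₀) * t⁻¹ by
        rw [map_mul]; group, rmm, map_one]
      group)
    refine hY.symm.trans (congrArg ι ((eq_one_or_m₀ Y h1).resolve_left fun h2 => rm1 (hι ?_)))
    rw [h2, map_one, eq_comm, mul_inv_eq_one, mul_eq_left] at hY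
    rw [hY, map_one]
  let C : H →* H := (MulAut.conj t).toMonoidHom
  have hC : ∀ y, C y = t * y * t⁻¹ := fun y => rfl
  have hXX : X * X = m₀ := hι (by rw [map_mul, hX, ← hC, ← map_mul C, ← map_mul, rss, hC, htm])
  have hXK : X * k₀ = m₀ * k₀ * X := by
    have h1 : X * K = m₀ * K * X := hι (by
      rw [map_mul, map_mul, map_mul, hX, ← htk, ← htm, ← hC, ← hC, ← hC, ← map_mul C, ← map_mul C,
        ← map_mul C, ← map_mul, ← map_mul, ← map_mul, rsk])
    rcases hK with rfl | rfl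
    · exact h1
    · rw [← mul_assoc, ← hm0c X, mul_assoc, mul_assoc m₀ (m₀ * k₀)] at h1
      exact mul_left_cancel h1
  have hX3 : (X * g₀ ^ m) ^ 3 = 1 := hι (by
    rw [map_pow, map_mul, hX, ← htg, ← hC, ← hC, ← map_mul C, ← map_mul, ← map_pow C, ← map_pow, ry3,
      map_one, map_one])
  have hsq : t * t ∈ S := Subgroup.mul_self_mem_of_index_two hidx t
  obtain ⟨Y, hY⟩ := hιsurj _ hsq
  have not_one : ∀ u : H, u ∉ S → v u * v u ≠ 1 := fun u hu h => by
    rcases mul_self_eq_one_iff.mp h with h1 | h1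
    · exact hu (by rw [hv (h1.trans (map_one v).symm)]; exact S.one_mem)
    · exact hu (by rw [hv (h1.trans hfm.symm)]; exact hιS _)
  have hwordK : ι K = C (ι (g₀ ^ 2 * s₀ * g₀ ^ 3 * s₀⁻¹ * g₀ ^ 2 * s₀⁻¹)) := by rw [rword, hC, htk]
  simp only [map_mul, map_inv, map_pow] at hwordK
  rw [hC (ι g₀), hC (ι s₀), htg, ← hX, ← map_pow ι, ← map_pow ι, ← map_inv ι] at hwordK
  simp only [← map_mul ι] at hwordK
  have hKval := hι hwordK
  rcases hm12 with rfl | rfl
  · -- `t` centralises everything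
    have hXs : X = s₀ := weyl_one X hXX hXK (by simpa using hX3)
    rw [hXs, pow_one, rword] at hKval
    have hcg : Commute t (ι g₀) := mul_inv_eq_iff_eq_mul.mp (htg.trans (by rw [pow_one]))
    have hcs : Commute t (ι s₀) := mul_inv_eq_iff_eq_mul.mp (hX.symm.trans (by rw [hXs]))
    have hck : Commute t (ι k₀) := mul_inv_eq_iff_eq_mul.mp (htk.trans (by rw [hKval]))
    have hYc : Y = 1 ∨ Y = m₀ := centralizer_pair Y
      (hι (by rw [map_mul, map_mul, hY, (hcg.mul_left hcg).eq]))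
      (hι (by rw [map_mul, map_mul, hY, (hcs.mul_left hcs).eq]))
    have htt : v t * v t = f Y := by rw [← map_mul]; exact congrArg v hY.symm
    rcases hYc with rfl | rfl
    · exact not_one t ht (htt.trans (map_one f))
    · have h2 : (v t - f k₀) * (v t + f k₀) = 0 := by
        have hcD : v t * f k₀ = f k₀ * v t := by
          show v t * v _ = v _ * v t
          rw [← map_mul, hck.eq, map_mul]
        rw [sub_mul, mul_add, mul_add, hcD, htt, hfm, hd.kk]
        abel
      rcases mul_eq_zero.mp h2 with h3 | h3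
      · exact ht (by rw [hv (show v t = v (ι k₀) from sub_eq_zero.mp h3)]; exact hιS _)
      · refine ht ?_
        rw [hv (show v t = v (ι (m₀ * k₀)) from (eq_neg_of_add_eq_zero_left h3).trans (by
          show -f k₀ = f (m₀ * k₀)
          rw [map_mul, hfm, neg_one_mul]))]
        exact hιS _
  · -- the outer case
    have hXks : X = k₀ * s₀ := weyl_two X hXX hXK hX3
    rw [hXks, ← pow_mul, ← pow_mul, outer_word.1] at hKval
    subst hKval
    have e1 : t * ι g₀ = ι (g₀ ^ 2) * t := mul_inv_eq_iff_eq_mul.mp htg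
    have e2 : t * ι k₀ = ι k₀ * t := mul_inv_eq_iff_eq_mul.mp htk
    have e3 : t * ι s₀ = ι k₀ * ι s₀ * t := by
      rw [← map_mul ι, ← hXks]; exact mul_inv_eq_iff_eq_mul.mp hX.symm
    have e22 : t * t * ι k₀ = ι k₀ * (t * t) := by rw [mul_assoc, e2, ← mul_assoc, e2, mul_assoc]
    have e11 : t * t * ι g₀ = ι (g₀ ^ 4) * (t * t) := by
      have h := SemiconjBy.pow_right (show SemiconjBy t (ι g₀) (ι (g₀ ^ 2)) from e1) 2
      rw [mul_assoc, e1, ← mul_assoc, map_pow, h.eq, ← map_pow, ← pow_mul, mul_assoc]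
    have hYv : Y = k₀ ∨ Y = m₀ * k₀ := inverting_comm Y
      (hι (by rw [map_mul, map_mul, hY, e11])) (hι (by rw [map_mul, map_mul, hY, e22]))
    have hkYk : ι k₀ * ι k₀ = ι m₀ := by rw [← map_mul, rkk]
    let T := t * ι s₀
    have hT : T = t * ι s₀ := rfl
    have hTT : ι k₀ * (T * T) = t * t * ι m₀ := by
      calc ι k₀ * (T * T) = ι k₀ * (t * ι s₀ * t * ι s₀) := by rw [hT]; group
        _ = t * (ι k₀ * ι s₀ * t) * ι s₀ := by simp only [← mul_assoc, e2]
        _ = t * (t * ι s₀) * ι s₀ := by rw [e3]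
        _ = t * t * ι (s₀ * s₀) := by rw [map_mul]; group
        _ = _ := by rw [rss]
    have hTS : T ∉ S := fun h => ht (by simpa [hT] using S.mul_mem h (S.inv_mem (hιS s₀)))
    have hT2 : v T * v T = -1 := by
      have hTsq : T * T = ι 1 ∨ T * T = ι m₀ := by
        rw [← hY] at hTT
        rcases hYv with rfl | rfl
        · refine Or.inr (mul_left_cancel (a := ι k₀) ?_)
          rw [hTT]
        · refine Or.inl (mul_left_cancel (a := ι k₀) ?_)
          rw [hTT, ← map_mul, ← map_mul, mul_assoc, ← hm0c k₀, ← mul_assoc, rmm, one_mul, mul_one]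
      rcases hTsq with h | h
      · exact absurd (by rw [← map_mul, h]; exact map_one f) (not_one T hTS)
      · rw [← map_mul, h]; exact hfm
    have d1 : v t * f g₀ = f g₀ ^ 2 * v t := by
      show v t * v _ = v _ ^ 2 * v t
      rw [← map_pow, ← map_mul, ← map_mul, e1, map_pow ι]
    have d2 : v t * f k₀ = f k₀ * v t := by
      show v t * v _ = v _ * v t
      rw [← map_mul, e2, map_mul]
    have dT : v T = v t * f s₀ := map_mul v t _
    refine hd.no_outer (T := v T) hT2 ?_ ?_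
    · set g := f g₀
      have hsum := geom_eq_zero hd.g5 hd.g1
      simp only [Finset.sum_range_succ, Finset.sum_range_zero, zero_add, pow_zero, pow_one] at hsum
      have d4 : v t * g ^ 4 = g ^ 3 * v t := by
        have h : v t * g ^ 4 = (g ^ 2) ^ 4 * v t := SemiconjBy.pow_right d1 4
        rw [← pow_mul, pow_eq_pow_mod (2 * 4) hd.g5] at h
        simpa using h
      have dz : v t * sqrtFive g = -(sqrtFive g * v t) := by
        simp only [sqrtFive]
        have h0 : (1 + g + g ^ 2 + g ^ 3 + g ^ 4) * v t = 0 := by rw [hsum, zero_mul]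
        linear_combination (norm := noncomm_ring) 2 * d1 + 2 * d4 + 2 * h0
      rw [dT, mul_assoc, ← hd.commute_z_s.eq, ← mul_assoc, dz, neg_mul, mul_assoc]
    · rw [dT, mul_assoc, hd.sk, mul_neg, ← mul_assoc, d2, mul_assoc]

end CfsgLib.DivisionFinite
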