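import Cfsg.Agent.Lib.DivisionFinite.GaussForm

/-!
`-1` is a sum of three squares in a domain containing `√5` and a root of unity of prime order `p ≥ 7`.
-/

set_option autoImplicit false
set_option linter.style.haveILetI false

namespace CfsgLib.DivisionFinite

open Polynomial

private lemma sq_mod_five : ∀ c : ZMod 5, c * c ≠ 3 * ((1 : ℤ) : ZMod 5) ∧
    c * c ≠ 3 * ((4 : ℤ) : ZMod 5) ∧ ((3 : ℕ) : ZMod 5) ≠ c * c := by
  decide

/-- A prime `l ≡ 3 (mod 20)` which is a non-square modulo `p`. -/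
lemma exists_aux_prime (p : ℕ) [Fact p.Prime] (h7 : 7 ≤ p) :
    ∃ l : ℕ, l.Prime ∧ 5 < l ∧ l % 20 = 3 ∧ ¬ IsSquare (l : ZMod p) := by
  have hp : p.Prime := Fact.out
  obtain ⟨ν, hν⟩ := FiniteField.exists_nonsquare (F := ZMod p) (by rw [ZMod.ringChar_zmod_n]; omega)
  have hν0 : ν ≠ 0 := fun h => hν (h ▸ IsSquare.zero)
  have hco : Nat.Coprime 20 p := by
    rw [Nat.coprime_comm, hp.coprime_iff_not_dvd]
    intro h
    rcases (Nat.Prime.dvd_mul hp).mp (show p ∣ 4 * 5 from h) with h | h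
    · have := Nat.le_of_dvd (by norm_num) h; omega
    · have := Nat.le_of_dvd (by norm_num) h; omega
  obtain ⟨n, hn1, hn2⟩ := Nat.chineseRemainder hco 3 ν.val
  have hnp : (n : ZMod p) = ν := by
    rw [(ZMod.natCast_eq_natCast_iff n ν.val p).mpr hn2, ZMod.natCast_zmod_val]
  have hnco : n.Coprime (20 * p) := by
    refine Nat.Coprime.mul_right ?_ (Nat.Coprime.symm (hp.coprime_iff_not_dvd.mpr fun h => hν0 ?_))
    · rw [Nat.Coprime, Nat.gcd_comm, Nat.gcd_rec, show n % 20 = 3 by simpa [Nat.ModEq] using hn1]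
      rfl
    · rw [← hnp]; exact (ZMod.natCast_eq_zero_iff n p).mpr h
  obtain ⟨l, hl5, hl, hmod⟩ := Nat.forall_exists_prime_gt_and_modEq 5 (q := 20 * p) (by positivity) hnco
  refine ⟨l, hl, hl5, ?_, ?_⟩
  · simpa [Nat.ModEq] using (hmod.of_mul_right p).trans hn1
  · rwa [(ZMod.natCast_eq_natCast_iff l n p).mpr (hmod.of_mul_left 20), hnp]

/-- A multiple of such a prime by `2` or `3` has the form `s² + 5 t²`. -/
lemma exists_rep (l : ℕ) [Fact l.Prime] (hl : l % 20 = 3) (hl5 : 5 < l) :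
    ∃ s t : ℤ, s ^ 2 + 5 * t ^ 2 = 2 * l ∨ s ^ 2 + 5 * t ^ 2 = 3 * l := by
  classical
  have hlp : l.Prime := Fact.out
  haveI : Fact (Nat.Prime 5) := ⟨Nat.prime_five⟩
  have hm1 : ¬ IsSquare (-1 : ZMod l) := by rw [ZMod.exists_sq_eq_neg_one_iff]; omega
  have h5 : ¬ IsSquare ((5 : ℕ) : ZMod l) := by
    rw [ZMod.exists_sq_eq_prime_iff_of_mod_four_eq_one (p := 5) (q := l) (by norm_num) (by omega) |>.symm,
      (ZMod.natCast_eq_natCast_iff l 3 5).mpr (show l % 5 = 3 % 5 by omega)]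
    rintro ⟨c, hc⟩
    exact (sq_mod_five c).2.2 hc
  obtain ⟨r, hr⟩ : IsSquare (-5 : ZMod l) := by
    have h1 : quadraticChar (ZMod l) (-1) = -1 := quadraticChar_neg_one_iff_not_isSquare.mpr hm1
    have h2 : quadraticChar (ZMod l) (5 : ℕ) = -1 := quadraticChar_neg_one_iff_not_isSquare.mpr h5
    have h3 : quadraticChar (ZMod l) ((-1) * (5 : ℕ)) = 1 := by rw [map_mul, h1, h2]; norm_num
    have hne : (-1) * ((5 : ℕ) : ZMod l) ≠ 0 := fun h => by rw [h, MulChar.map_zero] at h3; exact zero_ne_one h3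
    simpa using (quadraticChar_one_iff_isSquare hne).mp h3
  set k := Nat.sqrt l
  have hk : k ^ 2 < l := lt_of_le_of_ne (Nat.sqrt_le' l) fun h => hlp.not_isSquare ⟨k, by rw [← h, sq]⟩
  have hcard : Fintype.card (ZMod l) < (Finset.range (k + 1) ×ˢ Finset.range (k + 1)).card := by
    rw [ZMod.card, Finset.card_product, Finset.card_range, ← sq]
    exact Nat.lt_succ_sqrt' l
  obtain ⟨a, ha, b, hb, hab, heq⟩ := Finset.exists_ne_map_eq_of_card_lt_of_maps_to
    (s := Finset.range (k + 1) ×ˢ Finset.range (k + 1)) (t := Finset.univ) (by rwa [Finset.card_univ])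
    (f := fun x : ℕ × ℕ => (x.1 : ZMod l) - r * (x.2 : ZMod l)) (fun _ _ => Finset.mem_univ _)
  simp only [Finset.mem_product, Finset.mem_range] at ha hb
  set s : ℤ := (a.1 : ℤ) - b.1
  set t : ℤ := (a.2 : ℤ) - b.2
  have hne : s ≠ 0 ∨ t ≠ 0 := by
    by_contra hc
    push Not at hc
    refine hab (Prod.ext ?_ ?_) <;> omega
  have hdvd : (l : ℤ) ∣ s ^ 2 + 5 * t ^ 2 := by
    rw [← ZMod.intCast_zmod_eq_zero_iff_dvd]
    have : (s : ZMod l) = r * (t : ZMod l) := by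
      simp only [s, t, Int.cast_sub, Int.cast_natCast]
      linear_combination heq
    push_cast
    rw [this]
    linear_combination -(t : ZMod l) ^ 2 * hr
  obtain ⟨j, hj⟩ := hdvd
  have hs : s ^ 2 ≤ (k : ℤ) ^ 2 := sq_le_sq.mpr (by rw [abs_le, abs_of_nonneg (Int.natCast_nonneg k)]; omega)
  have ht : t ^ 2 ≤ (k : ℤ) ^ 2 := sq_le_sq.mpr (by rw [abs_le, abs_of_nonneg (Int.natCast_nonneg k)]; omega)
  have hk' : (k : ℤ) ^ 2 < l := by exact_mod_cast hk
  have hpos : 0 < s ^ 2 + 5 * t ^ 2 := by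
    rcases hne with h | h <;> have := sq_pos_of_ne_zero h <;> nlinarith [sq_nonneg s, sq_nonneg t]
  have hj6 : j < 6 := by nlinarith
  have hj0 : 0 < j := by nlinarith
  refine ⟨s, t, ?_⟩
  have hj' : (s : ZMod 5) * s = 3 * (j : ZMod 5) := by
    have h := congrArg (Int.cast (R := ZMod 5)) hj
    push_cast at h
    rw [(ZMod.natCast_eq_natCast_iff l 3 5).mpr (show l % 5 = 3 % 5 by omega),
      show (5 : ZMod 5) = 0 from rfl] at h
    push_cast at h
    linear_combination h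
  interval_cases j
  · exact absurd hj' (sq_mod_five _).1
  · exact Or.inl (by linear_combination hj)
  · exact Or.inr (by linear_combination hj)
  · exact absurd hj' (sq_mod_five _).2.1
  · exfalso
    obtain ⟨s', hs'⟩ : (5 : ℤ) ∣ s := (Nat.prime_iff_prime_int.mp Nat.prime_five).dvd_of_dvd_pow
      (n := 2) ⟨(l : ℤ) - t ^ 2, by push_cast; linear_combination hj⟩
    have h : (l : ℤ) = 5 * s' ^ 2 + t ^ 2 := by
      have := hj; rw [hs'] at this; linarith [this]
    have h' := congrArg (Int.cast (R := ZMod 5)) h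
    push_cast at h'
    rw [(ZMod.natCast_eq_natCast_iff l 3 5).mpr (show l % 5 = 3 % 5 by omega),
      show (5 : ZMod 5) = 0 from rfl, zero_mul, zero_add, sq] at h'
    exact (sq_mod_five _).2.2 h'

/-- `-1` is a sum of three squares. -/
theorem exists_three_squares (p : ℕ) [Fact p.Prime] (h7 : 7 ≤ p) {R : Type*} [CommRing R] [IsDomain R]
    [Algebra ℚ R] {ζ z : R} (hζ : ζ ^ p = 1) (hζ1 : ζ ≠ 1) (hz : z ^ 2 = 5) :
    ∃ a b c : R, a ^ 2 + b ^ 2 + c ^ 2 = -1 := by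
  obtain ⟨l, hlp, hl5, hl20, hnsq⟩ := exists_aux_prime p h7
  haveI : Fact l.Prime := ⟨hlp⟩
  let q : ℚ → R := algebraMap ℚ R
  obtain ⟨x, y, hxy⟩ : ∃ x y : R, x ^ 2 + y ^ 2 = (l : R) := by
    obtain ⟨s, t, h⟩ := exists_rep l hl20 hl5
    have h2 : (algebraMap ℚ R (1/2)) * 2 = 1 := by
      rw [← map_ofNat (algebraMap ℚ R), ← map_mul]; norm_num
    have h3 : (algebraMap ℚ R (1/3)) * 3 = 1 := by
      rw [← map_ofNat (algebraMap ℚ R), ← map_mul]; norm_num
    set u := algebraMap ℚ R (1/2)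
    set v := algebraMap ℚ R (1/3)
    rcases h with h | h
    · have hR : (s : R) ^ 2 + 5 * (t : R) ^ 2 = 2 * (l : R) := by
        exact_mod_cast congrArg (Int.cast (R := R)) h
      refine ⟨u * (s - z * t), u * (s + z * t), ?_⟩
      linear_combination (2 * u ^ 2 * (t : R) ^ 2) * hz + 2 * u ^ 2 * hR +
        ((l : R) * (2 * u + 1)) * h2
    · have hR : (s : R) ^ 2 + 5 * (t : R) ^ 2 = 3 * (l : R) := by
        exact_mod_cast congrArg (Int.cast (R := R)) h
      set φ := u * (1 + z)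
      set φ' := u * (1 - z)
      refine ⟨v * (s * φ - z * t * φ'), v * (s * φ' + z * t * φ), ?_⟩
      have hφ : φ ^ 2 + φ' ^ 2 = 3 := by
        linear_combination 2 * u ^ 2 * hz + 3 * (2 * u + 1) * h2
      linear_combination v ^ 2 * ((s : R) ^ 2 + z ^ 2 * (t : R) ^ 2) * hφ + 3 * v ^ 2 * (t : R) ^ 2 * hz +
        3 * v ^ 2 * hR + (l : R) * (3 * v + 1) * h3
  obtain ⟨U, V, hUV⟩ := exists_gauss_form l (by omega)
  have hprod : ∀ t : ℕ, ∃ A B : R, (ζ - 1) * (A ^ 2 + l * B ^ 2) = 4 ^ t * (ζ ^ l ^ t - 1) := fun t => by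
    induction t with
    | zero => exact ⟨1, 0, by ring⟩
    | succ t ih =>
      obtain ⟨A, B, h⟩ := ih
      set Z := ζ ^ l ^ t with hZ
      have hid := congrArg (aeval Z) hUV
      simp only [map_mul, map_sub, map_add, map_pow, aeval_X, aeval_C, map_one, map_ofNat, map_natCast] at hid
      refine ⟨A * aeval Z U + l * B * aeval Z V, A * aeval Z V - B * aeval Z U, ?_⟩
      rw [show ζ ^ l ^ (t + 1) = Z ^ l by rw [hZ, ← pow_mul, pow_succ]]
      linear_combination (aeval Z U ^ 2 + (l : R) * aeval Z V ^ 2) * h + 4 ^ t * hid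
  obtain ⟨A, B, hAB⟩ := hprod (p / 2)
  have hmod : l ^ (p / 2) % p = p - 1 := by
    have hl0 : (l : ZMod p) ≠ 0 := fun h => hnsq (h ▸ IsSquare.zero)
    have h1 : (l : ZMod p) ^ (p / 2) = -1 :=
      (ZMod.pow_div_two_eq_neg_one_or_one p hl0).resolve_left fun h =>
        hnsq ((ZMod.euler_criterion p hl0).mpr h)
    have h2 : ((l ^ (p / 2) : ℕ) : ZMod p) = ((p - 1 : ℕ) : ZMod p) := by
      rw [Nat.cast_pow, h1, Nat.cast_sub (Fact.out : p.Prime).one_le, ZMod.natCast_self]; simp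
    have := (ZMod.natCast_eq_natCast_iff' _ _ _).mp h2
    rwa [Nat.mod_eq_of_lt (show p - 1 < p by omega)] at this
  rw [pow_eq_pow_mod _ hζ, hmod] at hAB
  have hζp : ζ ^ (p - 1) * ζ = 1 := by rw [← pow_succ, Nat.sub_add_cancel (by omega), hζ]
  have hE : (A ^ 2 + l * B ^ 2) * ζ = -(4 ^ (p / 2)) :=
    mul_left_cancel₀ (sub_ne_zero.mpr hζ1) (by linear_combination ζ * hAB + 4 ^ (p / 2) * hζp)
  have hodd : (p / 2 + 1) * 2 = p + 1 := by
    rcases (Fact.out : p.Prime).eq_two_or_odd with h | h <;> omega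
  set w := ζ ^ (p / 2 + 1)
  have hw : w ^ 2 = ζ := by rw [← pow_mul, hodd, pow_succ, hζ, one_mul]
  set e := algebraMap ℚ R ((1/2) ^ (p / 2))
  have he : e ^ 2 * 4 ^ (p / 2) = 1 := by
    rw [← map_ofNat (algebraMap ℚ R), ← map_pow, ← map_pow, ← map_mul, ← pow_mul, mul_comm (p / 2),
      pow_mul, ← mul_pow]
    norm_num
  refine ⟨A * w * e, x * (B * w * e), y * (B * w * e), ?_⟩
  linear_combination (B * w * e) ^ 2 * hxy + e ^ 2 * (A ^ 2 + l * B ^ 2) * hw + e ^ 2 * hE - he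

end CfsgLib.DivisionFinite
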